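import Mathlib
import Cfsg.Agent.Lib.Cover.Swan
import Cfsg.Agent.Lib.Cover.Quot

/-! Harada's conjecture for `p`-solvable groups (Kiyota–Okuyama). -/

set_option autoImplicit false
set_option linter.unusedSectionVars false

namespace CfsgLib.Cover

open Cfsg CfsgLib.Char CfsgLib.Block CfsgLib.Blk Finset
open scoped ComplexConjugate

universe u

variable {p : ℕ} {M : Ideal AlgInt}

section basic

variable {G : Type*} [Group G] [Fintype G]

/-- The part of the regular character belonging to `U`. -/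
noncomputable def thU (U : Set (IrrCharacter G)) : G → ℂ :=
  ∑ χ ∈ bf U, (χ : G → ℂ) 1 • (χ : G → ℂ)

/-- The part of the regular character belonging to `U` vanishes on `p`-singular elements. -/
def HHyp (p : ℕ) (U : Set (IrrCharacter G)) : Prop := ∀ g, p ∣ orderOf g → thU U g = 0

/-- `U` is separated from its complement. -/
def HSep (p : ℕ) (U : Set (IrrCharacter G)) : Prop :=
  ∀ χ ∈ U, ∀ ψ ∉ U, mm p (χ : G → ℂ) (ψ : G → ℂ) = 0

theorem conj_irr_one (χ : IrrCharacter G) : conj ((χ : G → ℂ) 1) = (χ : G → ℂ) 1 := by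
  rw [← ChDeg.irr_deg_cast, map_natCast]

theorem thU_eq_blockPart (U : Set (IrrCharacter G)) : thU U = blockPart U (regChar G) := by
  rw [blockPart_bf]
  exact Finset.sum_congr rfl fun χ _ => by rw [classInner_regChar_left, conj_irr_one]

theorem hHyp_iff_reg {U : Set (IrrCharacter G)} : HHyp p U ↔ pRegularPart p (thU U) = thU U := by
  refine ⟨fun h => funext fun g => ?_, fun h g hg => by rw [← h, pRegularPart_of_sing hg]⟩
  by_cases hg : p ∣ orderOf g
  · rw [pRegularPart_of_sing hg, h g hg]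
  · exact pRegularPart_of_reg hg

theorem reg_eq_self_iff {f : G → ℂ} : pRegularPart p f = f ↔ mm p f f = classInner f f := by
  refine ⟨fun h => by rw [mm, h], fun h => ?_⟩
  rw [← sub_eq_zero, ← classInner_self_eq_zero, classInner_sub_left, classInner_sub_right,
    classInner_sub_right, ← mm_eq_both, ← mm_eq_right, ← h, mm]
  ring

theorem hHyp_iff_sum {U : Set (IrrCharacter G)} : HHyp p U ↔
    ∑ χ ∈ bf U, ∑ ψ ∈ bf U, (χ : G → ℂ) 1 * conj ((ψ : G → ℂ) 1) * mm p (χ : G → ℂ) (ψ : G → ℂ) =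
      ∑ χ ∈ bf U, (χ : G → ℂ) 1 * conj ((χ : G → ℂ) 1) := by
  classical
  rw [hHyp_iff_reg, reg_eq_self_iff, mm, thU, pRegularPart_sum, classInner_sum_left,
    classInner_sum_left]
  refine Eq.congr (Finset.sum_congr rfl fun χ _ => ?_) (Finset.sum_congr rfl fun χ hχ => ?_)
  · rw [classInner_sum_right]
    refine Finset.sum_congr rfl fun ψ _ => ?_
    rw [pRegularPart_smul, classInner_smul_left, classInner_smul_right, mm, mul_assoc]
  · rw [classInner_sum_right, Finset.sum_eq_single χ]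
    · rw [classInner_smul_left, classInner_smul_right, classInner_irr_self χ.2, mul_one]
    · intro ψ _ h
      rw [classInner_smul_left, classInner_smul_right, classInner_irr_irr, if_neg h.symm, mul_zero,
        mul_zero]
    · exact fun h => absurd hχ h

theorem hHyp_iff_blockCoeff {U : Set (IrrCharacter G)} :
    HHyp p U ↔ ∀ g, p ∣ orderOf g → blockCoeff U g = 0 := by
  refine forall₂_congr fun g _ => ?_
  rw [blockCoeff_bf, mul_eq_zero, inv_eq_zero, or_iff_right natCard_ne_zero,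
    ← map_eq_zero (starRingEnd ℂ), thU, Finset.sum_apply, map_sum]
  simp only [Pi.smul_apply, smul_eq_mul, map_mul, conj_irr_one]

theorem Red.hHyp {K : Type*} [Group K] [Fintype K] {A U : Set (IrrCharacter G)}
    {σ : IrrCharacter G → IrrCharacter K} {c : ℂ} (h : Red p A σ c) (hU : U ⊆ A) (h1 : HHyp p U) :
    HHyp p (σ '' U) := by
  classical
  have hb : bf (σ '' U) = (bf U).image σ := by
    ext β
    simp only [mem_bf, Finset.mem_image, Set.mem_image]
  have hi : Set.InjOn σ (bf U : Set (IrrCharacter G)) := by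
    rw [coe_bf]; exact h.inj.mono hU
  rw [hHyp_iff_sum] at h1 ⊢
  rw [hb]
  simp only [Finset.sum_image hi]
  rcases U.eq_empty_or_nonempty with rfl | ⟨χ₀, h0⟩
  · have : bf (∅ : Set (IrrCharacter G)) = ∅ := by
      ext; simp only [mem_bf, Set.mem_empty_iff_false, Finset.notMem_empty]
    simp only [this, Finset.sum_empty]
  have hc : c ≠ 0 := left_ne_zero_of_mul (h.deg χ₀ (hU h0) ▸ irr_one_ne_zero χ₀.2)
  refine mul_left_cancel₀ (mul_ne_zero hc ((map_ne_zero (starRingEnd ℂ)).2 hc)) ?_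
  rw [Finset.mul_sum, Finset.mul_sum]
  convert h1 using 1
  · refine Finset.sum_congr rfl fun χ hχ => ?_
    rw [Finset.mul_sum]
    refine Finset.sum_congr rfl fun ψ hψ => ?_
    rw [h.mm χ (hU (mem_bf.1 hχ)) ψ (hU (mem_bf.1 hψ)), h.deg χ (hU (mem_bf.1 hχ)),
      h.deg ψ (hU (mem_bf.1 hψ)), map_mul]
    ring
  · refine Finset.sum_congr rfl fun χ hχ => ?_
    rw [h.deg χ (hU (mem_bf.1 hχ)), map_mul]
    ring

theorem mm_eq_zero_symm {χ ψ : G → ℂ} (h : mm p χ ψ = 0) : mm p ψ χ = 0 := by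
  rw [← conj_mm, h, map_zero]

theorem HSep.blockPart_reg {A : Set (IrrCharacter G)} (h : HSep p A) {f : G → ℂ}
    (hf : IsClassFunction G f) :
    blockPart A (pRegularPart p f) = pRegularPart p (blockPart A f) := by
  have hc : ∀ f : G → ℂ, IsClassFunction G (blockPart A f) := fun f => by
    rw [blockPart_bf]
    exact isClassFunction_sum _ fun χ _ => isClassFunction_smul _ (irr_isClassFunction χ)
  refine classFun_ext_of_inner (hc _) (isClassFunction_pRegularPart (hc _)) fun ψ hψ => ?_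
  have h1 : classInner (pRegularPart p (blockPart A f)) ψ =
      ∑ χ ∈ bf A, classInner f χ * mm p (χ : G → ℂ) ψ := by
    rw [blockPart_bf, pRegularPart_sum, classInner_sum_left]
    exact Finset.sum_congr rfl fun χ _ => by rw [pRegularPart_smul, classInner_smul_left, mm]
  rw [h1]
  by_cases h2 : (⟨ψ, hψ⟩ : IrrCharacter G) ∈ A
  · rw [classInner_blockPart_of_mem _ h2, sum_bf_eq_sum_univ fun χ hχ =>
      mul_eq_zero_of_right _ (mm_eq_zero_symm (h _ h2 χ hχ))]
    conv_lhs => rw [classFun_eq_sum hf, pRegularPart_sum, classInner_sum_left]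
    exact Finset.sum_congr rfl fun χ _ => by rw [pRegularPart_smul, classInner_smul_left, mm]
  · rw [classInner_blockPart_of_notMem _ h2]
    exact (Finset.sum_eq_zero fun χ hχ => mul_eq_zero_of_right _ (h χ (mem_bf.1 hχ) _ h2)).symm

theorem isClassFunction_thU (U : Set (IrrCharacter G)) : IsClassFunction G (thU U) :=
  isClassFunction_sum _ fun χ _ => isClassFunction_smul _ (irr_isClassFunction χ)

theorem blockPart_thU (A U : Set (IrrCharacter G)) : blockPart A (thU U) = thU (U ∩ A) := by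
  rw [blockPart_bf, thU_eq_blockPart U, thU, ← Finset.sum_subset
    (s₁ := bf (U ∩ A)) (fun χ hχ => mem_bf.2 (mem_bf.1 hχ).2)]
  · refine Finset.sum_congr rfl fun χ hχ => ?_
    rw [classInner_blockPart_of_mem _ (mem_bf.1 hχ).1, classInner_regChar_left, conj_irr_one]
  · intro χ hχ h
    rw [classInner_blockPart_of_notMem _ fun h' => h (mem_bf.2 ⟨h', mem_bf.1 hχ⟩), zero_smul]

theorem HHyp.inter {A U : Set (IrrCharacter G)} (hU : HHyp p U) (h : HSep p A) :
    HHyp p (U ∩ A) := by
  rw [hHyp_iff_reg, ← blockPart_thU, ← h.blockPart_reg (isClassFunction_thU U),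
    hHyp_iff_reg.1 hU]

theorem HHyp.compl (hp : p.Prime) {U : Set (IrrCharacter G)} (hU : HHyp p U) : HHyp p Uᶜ := by
  classical
  intro g hg
  have h1 : thU U + thU Uᶜ = regChar G := by
    have : bf Uᶜ = (bf U)ᶜ := by
      ext χ; rw [Finset.mem_compl, mem_bf, mem_bf, Set.mem_compl_iff]
    rw [regChar_eq_sum, thU, thU, this, Finset.sum_add_sum_compl]
  have h2 := congrFun h1 g
  rwa [Pi.add_apply, hU g hg, zero_add, regChar_of_ne_one] at h2
  rintro rfl
  rw [orderOf_one] at hg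
  exact hp.not_dvd_one hg

theorem HHyp.classInner_eq_zero {U : Set (IrrCharacter G)} (hU : HHyp p U) {Ψ : G → ℂ}
    (hΨ : IsCharacter G Ψ) {χ : IrrCharacter G} (hχ : χ ∉ U)
    (h : pRegularPart p Ψ = pRegularPart p (χ : G → ℂ)) {η : IrrCharacter G} (hη : η ∈ U) :
    classInner Ψ η = 0 := by
  obtain ⟨n, hn, -⟩ := ChDeg.exists_deg_eq_sum hΨ
  have h1 : classInner Ψ (thU U) = 0 := by
    rw [← hHyp_iff_reg.1 hU, ← classInner_reg_left, h, classInner_reg_left, hHyp_iff_reg.1 hU]
    refine classInner_eq_zero_symm ?_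
    rw [thU_eq_blockPart, classInner_blockPart_of_notMem _ hχ]
  rw [thU, classInner_sum_right] at h1
  simp only [classInner_smul_right, hn, ← ChDeg.irr_deg_cast, map_natCast] at h1
  have h2 : ∑ ψ ∈ bf U, charDegree (ψ : G → ℂ) * n ψ = 0 := by exact_mod_cast h1
  have h3 := Finset.sum_eq_zero_iff.1 h2 η (mem_bf.2 hη)
  rw [hn, (mul_eq_zero.1 h3).resolve_left (ChDeg.deg_pos η.2).ne', Nat.cast_zero]

theorem hSep_of_forall {U : Set (IrrCharacter G)} (h : ∀ f : G → ℂ, IsClassFunction G f →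
    pRegularPart p f = 0 → pRegularPart p (blockPart U f) = 0) : HSep p U := by
  intro χ hχ ψ hψ
  have h1 := h ((ψ : G → ℂ) - pRegularPart p ψ) (isClassFunction_sub (irr_isClassFunction ψ)
    (isClassFunction_pRegularPart (irr_isClassFunction ψ)))
    (by rw [pRegularPart_sub, pRegularPart_idem, sub_self])
  have h2 : blockPart U (ψ : G → ℂ) = 0 := by
    rw [blockPart_bf]
    refine Finset.sum_eq_zero fun η hη => ?_
    rw [classInner_irr_irr, if_neg fun h : ψ = η => hψ (h ▸ mem_bf.1 hη), zero_smul]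
  rw [← partLin_apply, map_sub, partLin_apply, partLin_apply, h2, pRegularPart_sub,
    pRegularPart_zero, zero_sub, neg_eq_zero] at h1
  have h3 : blockPart U (pRegularPart p (ψ : G → ℂ)) = 0 := by
    rw [← classInner_self_eq_zero, ← classInner_blockPart_comm, blockPart_idem,
      ← classInner_reg_left, h1, classInner_zero_left]
  refine mm_eq_zero_symm ?_
  rw [mm, ← classInner_blockPart_of_mem _ hχ, h3, classInner_zero_left]

theorem hSep_of_quotient (hp : p.Prime) {K : Type*} [Group K] [Fintype K] (φ : G →* K)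
    (hφ : Function.Surjective φ) (hl : ∀ χ : IrrCharacter G, ∃ Ψ : K → ℂ, IsCharacter K Ψ ∧
      pRegularPart p (fun g => Ψ (φ g)) = pRegularPart p (χ : G → ℂ))
    {U : Set (IrrCharacter G)} (hU : HHyp p U) (h : HSep p (infl φ hφ ⁻¹' U)) : HSep p U := by
  classical
  choose Ψ hΨ hΨ' using hl
  have hin : ∀ χ (η : IrrCharacter K),
      classInner (Ψ χ) η = classInner (fun g => Ψ χ (φ g)) (infl φ hφ η) :=
    fun χ η => (classInner_comp_of_surjective φ hφ _ _).symm
  refine hSep_of_forall fun f hf h0 => ?_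
  have h1 : pRegularPart p (∑ χ : IrrCharacter G, classInner f χ • Ψ χ) = 0 := by
    rw [← pRegularPart_zero (p := p)]
    refine reg_ext fun k hk => ?_
    obtain ⟨g, hg, rfl⟩ := exists_pRegular_preimage hp φ hφ hk
    refine Eq.trans ?_ (congrFun h0 g)
    rw [pRegularPart_of_reg hg, classFun_apply_eq_sum hf, Finset.sum_apply]
    exact Finset.sum_congr rfl fun χ _ => by rw [← eq_of_reg_eq (hΨ' χ) hg]; rfl
  have h2 : blockPart (infl φ hφ ⁻¹' U) (∑ χ : IrrCharacter G, classInner f χ • Ψ χ) =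
      ∑ χ ∈ bf U, classInner f χ • Ψ χ := by
    rw [blockPart_sum, ← sum_bf_eq_sum_univ (B := U)]
    · refine Finset.sum_congr rfl fun χ hχ => ?_
      rw [blockPart_smul, blockPart_eq_self (isClassFunction_of_isCharacter (hΨ χ))]
      exact fun η hη => (hin χ η).trans ((hU.compl hp).classInner_eq_zero
        (isCharacter_comp φ (hΨ χ)) (not_not.2 (mem_bf.1 hχ)) (hΨ' χ) hη)
    · intro χ hχ
      rw [blockPart_smul, blockPart_bf, Finset.sum_eq_zero, smul_zero]
      intro η hη
      rw [hin, hU.classInner_eq_zero (isCharacter_comp φ (hΨ χ)) hχ (hΨ' χ)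
        (mem_bf (B := infl φ hφ ⁻¹' U).1 hη), zero_smul]
  have h3 := h.blockPart_reg (f := ∑ χ : IrrCharacter G, classInner f χ • Ψ χ)
    (isClassFunction_sum _ fun χ _ => isClassFunction_smul _ (isClassFunction_of_isCharacter (hΨ χ)))
  rw [h1, blockPart_zero, h2] at h3
  rw [← pRegularPart_zero (p := p)]
  refine reg_ext fun g hg => ?_
  have h4 := congrFun h3 (φ g)
  rw [pRegularPart_of_reg fun h => hg (h.trans (orderOf_map_dvd φ g)), Finset.sum_apply] at h4
  refine Eq.trans ?_ h4.symm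
  rw [blockPart_bf, Finset.sum_apply]
  exact Finset.sum_congr rfl fun χ _ => by
    rw [Pi.smul_apply, Pi.smul_apply, ← eq_of_reg_eq (hΨ' χ) hg]

theorem HHyp.preimage_infl {K : Type*} [Group K] [Fintype K] (φ : G →* K)
    (hφ : Function.Surjective φ) {U : Set (IrrCharacter G)} (hU : HHyp p U) :
    HHyp p (infl φ hφ ⁻¹' U) := by
  have := Fintype.ofFinite φ.ker
  rw [hHyp_iff_blockCoeff] at hU ⊢
  intro k hk
  obtain ⟨x, rfl⟩ := hφ k
  rw [blockCoeff_preimage_infl]
  refine Finset.sum_eq_zero fun u _ => hU _ (Dvd.dvd.trans ?_ (orderOf_map_dvd φ _))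
  rwa [map_mul, u.2, mul_one]

end basic

theorem hSep_of_isPSolvable {G : Type u} [Group G] [Fintype G] [hp : Fact p.Prime]
    (hG : IsPSolvable p G) {U : Set (IrrCharacter G)} (hU : HHyp p U) : HSep p U := by
  obtain ⟨M, hM⟩ := ChDeg.exists_pModular hp.out
  suffices ∀ (n : ℕ) {G : Type u} [Group G] [Fintype G] (Z : Subgroup G), Z.index = n →
      Z ≤ Subgroup.center G → (Nat.card Z).Coprime p → IsPSolvable p G →
      ∀ U : Set (IrrCharacter G), HHyp p U → HSep p U from this _ ⊥ rfl bot_le (by simp) hG U hU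
  intro n
  induction n using Nat.strong_induction_on with
  | _ n ih =>
  intro G _ _ Z hn hZ hZp hG U hU
  have hZN : Z ≤ pPrimeCore p G :=
    PLocal.PSolv.le_pPrimeCore ⟨fun z hz g => by
      rwa [Subgroup.mem_center_iff.1 (hZ hz), mul_inv_cancel_right]⟩ hZp
  by_cases hQ : pCore p G = ⊥
  · rcases hZN.eq_or_lt with hN | hN
    · have h1 := PLocal.PSolv.coprime_card_pPrimeCore (p := p) (G := G)
      rw [pPrimeCore_eq_top_of_central hG (hN ▸ hZ) hQ, Subgroup.card_top] at h1
      intro χ hχ ψ hψ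
      have h2 : pRegularPart p (χ : G → ℂ) = χ := funext fun g => pRegularPart_of_reg fun h =>
        hp.out.coprime_iff_not_dvd.1 h1.symm (h.trans (orderOf_dvd_natCard g))
      rw [mm, h2, classInner_irr_irr, if_neg fun h : χ = ψ => hψ (h ▸ hχ)]
    · have := Fintype.ofFinite (pPrimeCore p G)
      intro χ hχ ψ hψ
      obtain ⟨θ, hθ⟩ := exists_under (pPrimeCore p G) χ
      have h0 : HSep p (ov (pPrimeCore p G).subtype θ) := fun χ hχ ψ hψ =>
        mm_eq_zero_of_ov hM (Subgroup.subtype_injective _)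
          (by rw [Subgroup.range_subtype]; infer_instance) PLocal.PSolv.coprime_card_pPrimeCore θ hχ hψ
      by_cases h1 : ψ ∈ ov (pPrimeCore p G).subtype θ
      · obtain ⟨K, _, _, Z', hK, hZ', hZp', hi, σ, c, h2⟩ :=
          exists_red hM hG _ PLocal.PSolv.coprime_card_pPrimeCore θ
        rw [h2.mm χ hθ ψ h1]
        refine ih _ (hn ▸ hi.trans_lt (index_lt_of_lt hN)) Z' rfl hZ' hZp' hK _
          (h2.hHyp Set.inter_subset_right (hU.inter h0)) _ ⟨χ, ⟨hχ, hθ⟩, rfl⟩ _ ?_
        rintro ⟨η, hη, h3⟩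
        exact hψ (h2.inj hη.2 h1 h3 ▸ hη.1)
      · exact h0 χ hθ ψ h1
  · have := Fintype.ofFinite (G ⧸ pCore p G)
    have hφ := QuotientGroup.mk'_surjective (pCore p G)
    refine hSep_of_quotient hp.out _ hφ (fun χ => ?_) hU (ih _ ?_ (Z.map (QuotientGroup.mk' _)) rfl ?_
      (hZp.coprime_dvd_left (Subgroup.card_map_dvd _ _)) (PLocal.PSolv.quotient hG _) _
      (hU.preimage_infl _ hφ))
    · obtain ⟨Ψ, hΨ, h1, h2⟩ := lifts_of_isPSolvable hG (irr_isCharacter χ)
      obtain ⟨Ξ, hΞ, h3⟩ := exists_char_quotient _ hΨ h1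
      exact ⟨Ξ, hΞ, (congrArg _ (funext h3)).trans h2⟩
    · rw [Subgroup.index_map, MonoidHom.range_eq_top.2 hφ, Subgroup.index_top, mul_one,
        QuotientGroup.ker_mk', ← hn]
      refine index_lt_of_lt (left_lt_sup.2 fun h => hQ ?_)
      exact (PLocal.PSolv.disjoint_of_isPGroup_of_coprime PLocal.PSolv.isPGroup_pCore hZp).eq_bot_of_le h
    · rintro _ ⟨z, hz, rfl⟩
      rw [Subgroup.mem_center_iff]
      intro y
      obtain ⟨y, rfl⟩ := hφ y
      rw [← map_mul, ← map_mul, Subgroup.mem_center_iff.1 (hZ hz)]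

theorem HSep.mem_of_mem_block {G : Type*} [Group G] [Fintype G] (hM : IsPModular p M)
    {U B : Set (IrrCharacter G)} (h : HSep p U) (hB : IsPBlock M B) {χ ψ : IrrCharacter G}
    (hχ : χ ∈ U) (hχB : χ ∈ B) (hψ : ψ ∈ B) : ψ ∈ U := by
  haveI : Fact p.Prime := ⟨hM.1⟩
  obtain ⟨η, hη, h0⟩ := exists_height_zero (p := p) ⟨χ, hχB⟩
  have key : ∀ ξ ∈ B, mm p (η : G → ℂ) (ξ : G → ℂ) ≠ 0 := fun ξ hξ h1 => by
    obtain ⟨n, hn, h2⟩ := exists_aa_eq_of_height_zero hM hB hη hξ h0
    have h3 := aa_cast (p := p) hη (isGenChar_of_isCharacter (irr_isCharacter ξ))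
    rw [h1, mul_zero, Int.cast_eq_zero, h2, mul_eq_zero] at h3
    exact h3.elim (pow_ne_zero _ (Int.natCast_ne_zero.2 hM.1.ne_zero)) fun h4 => hn (h4 ▸ dvd_zero _)
  by_contra hψU
  by_cases h1 : η ∈ U
  · exact key ψ hψ (h η h1 ψ hψU)
  · exact key χ hχB (mm_eq_zero_symm (h χ hχ η h1))

end CfsgLib.Cover
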